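import Cfsg.Agent.H357.T6.AsmTwo
import Cfsg.Agent.H982.FR.Sum

/-!
# Two clean tori, two middle characters (helper357)

`(A, T, m)`, `(B, S, k)` clean tori of coprime orders in a group of Lie type in characteristic `p`.

* `asm_clean` : if the possible degrees of the characters with nonzero values at `x ∈ A - 1` and `y ∈ B - 1` are `1`, powers of
  `p`, multiples of `|G|_p`, and numbers `≥ D` with values `c d = -1`, and `2 |C(g)| < D² + 2` for the `p`-singular `g` with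
  `p ∣ |g^G|`, then `g ∈ x^G y^G` for all `g ≠ 1`.
-/

set_option autoImplicit false
set_option linter.unusedSectionVars false

open Cfsg Subgroup
open scoped ComplexConjugate

namespace Cfsg.Agent.H357.T6.Asm

open Cfsg.Agent.Characters Cfsg.Agent.Characters.Core Cfsg.Agent.H65.Ore
open Cfsg.Agent.H653.Sieve Cfsg.Agent.H221.TC

universe u

variable {G : Type u} [Group G] [Finite G]

theorem abs_le_three {c : ℤ} {n : ℕ} (h : c ^ 2 + 2 ≤ n) (hn : n ≤ 17) : -3 ≤ c ∧ c ≤ 3 := by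
  have h1 : c ^ 2 ≤ 15 := by
    have : (n : ℤ) ≤ 17 := by exact_mod_cast hn
    linarith
  constructor <;> nlinarith

/-- **Two clean tori and two middle characters.** -/
theorem asm_clean {p : ℕ} (hp : p.Prime) (hG : IsLieTypeChar p G) {A T B S : Subgroup G} {m k w v D : ℕ}
    (hT : Tor A T m) (hS : Tor B S k) (hw : T.relIndex (normalizer (T : Set G)) = w)
    (hv : S.relIndex (normalizer (S : Set G)) = v) (hTc : Nat.card T = m * Nat.card A)
    (hSc : Nat.card S = k * Nat.card B) (hA : v * k * w + w + 1 < Nat.card A) (hA' : w * m + w + 1 < Nat.card A)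
    (hB : w * m * v + v + 1 < Nat.card B) (hB' : v * k + v + 1 < Nat.card B)
    (hwm : w * m ≤ 17) (hvk : v * k ≤ 17) (hcop : (Nat.card T).Coprime (Nat.card S))
    (hpT : ¬ p ∣ Nat.card T) (hpS : ¬ p ∣ Nat.card S)
    (hnum : ∀ d : ℕ, d ∣ Nat.card G → d * d < Nat.card G → ∀ a b : ℤ, a ≠ 0 → b ≠ 0 → -3 ≤ a → a ≤ 3 → -3 ≤ b → b ≤ 3 →
      (Nat.card A : ℤ) ∣ (d : ℤ) - a → (Nat.card B : ℤ) ∣ (d : ℤ) - b →
      d = 1 ∨ (∃ j < (Nat.card G).factorization p, d = p ^ j) ∨ (a * b = -1 ∧ D ≤ d) ∨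
        p ^ (Nat.card G).factorization p ∣ d)
    (hcb : ∀ g : G, p ∣ orderOf g → p ∣ (centralizer ({g} : Set G)).index →
      2 * Nat.card (centralizer ({g} : Set G)) < D ^ 2 + 2)
    {x y : G} (hx : x ∈ A) (hx1 : x ≠ 1) (hy : y ∈ B) (hy1 : y ≠ 1) (g : G) (hg : g ≠ 1) : Prd x y g := by
  classical
  have : Fintype G := Fintype.ofFinite G
  have : Finite (IrrCharacter G) := finite_irr
  have := Fintype.ofFinite (IrrCharacter G)
  have : Fact p.Prime := ⟨hp⟩
  have hsimple : IsSimpleGroup G := H400.LieSimple.isSimple_of_lie hG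
  have hdis : ∀ t ∈ T, t ^ m ≠ 1 → ∀ s ∈ S, s ^ k ≠ 1 → ∀ z : G, t ≠ z * s * z⁻¹ := by
    intro t ht ht1 s hs _ z
    have h1 : t ≠ 1 := by rintro rfl; exact ht1 (one_pow _)
    exact not_isConj_cop rfl rfl hcop.symm hs ht h1 z
  have hdis' : ∀ s ∈ S, s ^ k ≠ 1 → ∀ t ∈ T, t ^ m ≠ 1 → ∀ z : G, s ≠ z * t * z⁻¹ := by
    intro s hs hs1 t ht _ z
    have h1 : s ≠ 1 := by rintro rfl; exact hs1 (one_pow _)
    exact not_isConj_cop rfl rfl hcop ht hs h1 z
  have hTc' : ∀ a ∈ A, a ≠ 1 → ¬ p ∣ Nat.card (centralizer ({a} : Set G)) := by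
    intro a ha ha1 h
    exact hpT (h.trans (Subgroup.card_dvd_of_le (hT.cent a ha ha1)))
  have hSc' : ∀ a ∈ B, a ≠ 1 → ¬ p ∣ Nat.card (centralizer ({a} : Set G)) := by
    intro a ha ha1 h
    exact hpS (h.trans (Subgroup.card_dvd_of_le (hS.cent a ha ha1)))
  have hxc := hTc' x hx hx1
  have hyc := hSc' y hy hy1
  have hxy : ¬ IsConj x y⁻¹ := by
    intro hcon
    obtain ⟨b, hb⟩ := isConj_iff.1 hcon
    exact not_isConj_cop rfl rfl hcop (hT.le hx) (S.inv_mem (hS.le hy)) (inv_ne_one.2 hy1) b hb.symm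
  -- the values
  have hex : ∀ χ : IrrCharacter G, ∃ c : ℤ, (((χ : G → ℂ) x ≠ 0 ∧ (χ : G → ℂ) y ≠ 0) →
      ∀ a ∈ A, a ≠ 1 → (χ : G → ℂ) a = c) ∧ (¬ ((χ : G → ℂ) x ≠ 0 ∧ (χ : G → ℂ) y ≠ 0) → c = 0) := by
    intro χ
    by_cases h : (χ : G → ℂ) x ≠ 0 ∧ (χ : G → ℂ) y ≠ 0
    · obtain ⟨c, hc⟩ := H982.FR.const_left hT hS hw hv hSc hA hB' hdis hy hy1 h.2
      exact ⟨c, fun _ => hc, fun h' => absurd h h'⟩
    · exact ⟨0, fun h' => absurd h' h, fun _ => rfl⟩
  have hex' : ∀ χ : IrrCharacter G, ∃ c : ℤ, (((χ : G → ℂ) x ≠ 0 ∧ (χ : G → ℂ) y ≠ 0) →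
      ∀ a ∈ B, a ≠ 1 → (χ : G → ℂ) a = c) ∧ (¬ ((χ : G → ℂ) x ≠ 0 ∧ (χ : G → ℂ) y ≠ 0) → c = 0) := by
    intro χ
    by_cases h : (χ : G → ℂ) x ≠ 0 ∧ (χ : G → ℂ) y ≠ 0
    · obtain ⟨c, hc⟩ := H982.FR.const_left hS hT hv hw hTc hB hA' hdis' hx hx1 h.1
      exact ⟨c, fun _ => hc, fun h' => absurd h h'⟩
    · exact ⟨0, fun h' => absurd h' h, fun _ => rfl⟩
  choose c hc hc0 using hex
  choose d hd hd0 using hex'
  -- the trivial character
  have h1x : ((one1 G : IrrCharacter G) : G → ℂ) x ≠ 0 := by rw [one1_apply]; exact one_ne_zero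
  have h1y : ((one1 G : IrrCharacter G) : G → ℂ) y ≠ 0 := by rw [one1_apply]; exact one_ne_zero
  have hc1 : c (one1 G) = 1 := by
    have h1 := hc (one1 G) ⟨h1x, h1y⟩ x hx hx1
    rw [one1_apply] at h1
    exact_mod_cast h1.symm
  have hd1 : d (one1 G) = 1 := by
    have h1 := hd (one1 G) ⟨h1x, h1y⟩ y hy hy1
    rw [one1_apply] at h1
    exact_mod_cast h1.symm
  -- the Steinberg character
  obtain ⟨st, hstd, hstv, -, huniq, -⟩ := H727.TC.exists_st hp hG
  have hstp : ¬ p ∣ Nat.card G / charDegree (st : G → ℂ) := by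
    rw [H143.ChevBlocks.not_dvd_iff st.2, hstd, hp.factorization_pow]
    simp
  have hpG : p ∣ Nat.card G :=
    H330.Gow.dvd_card (H330.Gow.hasSplit_of_ab (H716.SplitAb.hasSplitAb_of_lie hp hG))
  have hst1 : st ≠ one1 G := by
    rintro h
    rw [h] at hstp
    apply hstp
    have h1 : charDegree ((one1 G : IrrCharacter G) : G → ℂ) = 1 := by
      unfold charDegree
      rw [one1_apply]
      simp
    rw [h1, Nat.div_one]
    exact hpG
  have hst0 : ∀ a : G, ¬ p ∣ Nat.card (centralizer ({a} : Set G)) → (st : G → ℂ) a = 1 ∨ (st : G → ℂ) a = -1 := by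
    intro a ha
    have h2 := hstv a (H727.TC.reg_of_cent ha)
    rwa [Nat.factorization_eq_zero_of_not_dvd ha, pow_zero, Nat.cast_one] at h2
  have hstx : (st : G → ℂ) x ≠ 0 := by
    rcases hst0 x hxc with h | h <;> rw [h] <;> norm_num
  have hsty : (st : G → ℂ) y ≠ 0 := by
    rcases hst0 y hyc with h | h <;> rw [h] <;> norm_num
  have hstc : c st = 1 ∨ c st = -1 := by
    have h1 := hc st ⟨hstx, hsty⟩ x hx hx1
    rcases hst0 x hxc with h | h
    · left; rw [h1] at h; exact_mod_cast h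
    · right; rw [h1] at h; exact_mod_cast h
  have hstW : d st = 1 ∨ d st = -1 := by
    have h1 := hd st ⟨hstx, hsty⟩ y hy hy1
    rcases hst0 y hyc with h | h
    · left; rw [h1] at h; exact_mod_cast h
    · right; rw [h1] at h; exact_mod_cast h
  have hone1 : ∀ χ : IrrCharacter G, χ ≠ one1 G → charDegree (χ : G → ℂ) ≠ 1 := by
    intro χ hχ h
    have hcomm : ¬ (Nat.card G).Prime := by
      intro hpr
      have h1 : p = Nat.card G := (Nat.prime_dvd_prime_iff_eq hp hpr).1 hpG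
      have h2 : Nat.card T ∣ Nat.card G := Subgroup.card_subgroup_dvd_card T
      rcases (Nat.dvd_prime hpr).1 h2 with h3 | h3
      · have h4 : x ≠ 1 := hx1
        have h5 : Nat.card T ≠ 1 := by
          intro h6
          have h7 := Subgroup.card_eq_one.1 h6
          have h8 := hT.le hx
          rw [h7, Subgroup.mem_bot] at h8
          exact h4 h8
        exact h5 h3
      · exact hpT (by rw [h3, ← h1])
    exact hχ (Subtype.ext (one_of_deg hcomm χ h))
  -- the middle characters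
  have hpair : ∀ χ : IrrCharacter G, c χ ≠ 0 → (χ : G → ℂ) x ≠ 0 ∧ (χ : G → ℂ) y ≠ 0 := by
    intro χ h
    by_contra hcon
    exact h (hc0 χ hcon)
  have hmidlt : ∀ χ : IrrCharacter G, χ ≠ one1 G → charDegree (χ : G → ℂ) * charDegree (χ : G → ℂ) < Nat.card G := by
    intro χ h1
    have h8 := SmallSimple.DegreeData.sum_sq (G := G)
    have h9 : ∑ χ' ∈ ({χ, one1 G} : Finset (IrrCharacter G)), charDegree (χ' : G → ℂ) ^ 2 ≤
        ∑ χ' : IrrCharacter G, charDegree (χ' : G → ℂ) ^ 2 :=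
      Finset.sum_le_sum_of_subset_of_nonneg (Finset.subset_univ _) fun χ' _ _ => by positivity
    rw [Finset.sum_pair h1, h8] at h9
    have h10 : charDegree ((one1 G : IrrCharacter G) : G → ℂ) = 1 := by
      unfold charDegree
      rw [one1_apply]
      simp
    rw [h10, one_pow, pow_two] at h9
    omega
  have key : ∀ χ : IrrCharacter G, IsMidC p c d χ → c χ * d χ = -1 ∧ D ≤ charDegree (χ : G → ℂ) := by
    rintro χ ⟨h1, h2, h3, h4⟩
    have h5 := hpair χ h3
    have hst : χ ≠ st := by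
      rintro rfl
      exact hstp h2
    have hne : one1 G ∉ ({st, χ} : Finset (IrrCharacter G)) := by
      rw [Finset.mem_insert, Finset.mem_singleton]
      rintro (h | h)
      · exact hst1 h.symm
      · exact h1 h.symm
    have hne' : st ∉ ({χ} : Finset (IrrCharacter G)) := by
      rw [Finset.mem_singleton]
      exact fun h => hst h.symm
    have hmem : ∀ ψ ∈ ({one1 G, st, χ} : Finset (IrrCharacter G)), (ψ : G → ℂ) x ≠ 0 ∧ (ψ : G → ℂ) y ≠ 0 := by
      intro ψ hψ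
      rw [Finset.mem_insert, Finset.mem_insert, Finset.mem_singleton] at hψ
      rcases hψ with rfl | rfl | rfl
      · exact ⟨h1x, h1y⟩
      · exact ⟨hstx, hsty⟩
      · exact h5
    have h6 := H982.FR.sum_const_le hT hw hTc (by omega) {one1 G, st, χ} c (fun ψ hψ => hc ψ (hmem ψ hψ))
    have h7 := H982.FR.sum_const_le hS hv hSc (by omega) {one1 G, st, χ} d (fun ψ hψ => hd ψ (hmem ψ hψ))
    rw [Finset.sum_insert hne, Finset.sum_insert hne', Finset.sum_singleton, hc1] at h6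
    rw [Finset.sum_insert hne, Finset.sum_insert hne', Finset.sum_singleton, hd1] at h7
    have h8 : c st ^ 2 = 1 := by rcases hstc with h | h <;> rw [h] <;> norm_num
    have h9 : d st ^ 2 = 1 := by rcases hstW with h | h <;> rw [h] <;> norm_num
    rw [h8] at h6
    rw [h9] at h7
    obtain ⟨ha1, ha2⟩ := abs_le_three (c := c χ) (n := w * m) (by push_cast; linarith) hwm
    obtain ⟨hb1, hb2⟩ := abs_le_three (c := d χ) (n := v * k) (by push_cast; linarith) hvk
    have h10 := H221.TC.deg_mod (A := A) (isIrr_isCharacter χ.2) (c := c χ) (d := (charDegree (χ : G → ℂ) : ℤ))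
      (hc χ h5) (by rw [← H686.CharKit.charDegree_irr χ]; simp)
    have h11 := H221.TC.deg_mod (A := B) (isIrr_isCharacter χ.2) (c := d χ) (d := (charDegree (χ : G → ℂ) : ℤ))
      (hd χ h5) (by rw [← H686.CharKit.charDegree_irr χ]; simp)
    rcases hnum _ (Blocks.CyclicUpper.charDegree_dvd χ.2) (hmidlt χ h1) (c χ) (d χ) h3 h4 ha1 ha2 hb1 hb2 h10 h11 with
      h12 | ⟨j, hj, h12⟩ | h12 | h12
    · exact absurd h12 (hone1 χ h1)
    · exfalso
      have := H727.TC.eq_of_pow hp hG h1 h12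
      omega
    · exact h12
    · exfalso
      have h13 : ¬ p ∣ Nat.card G / charDegree (χ : G → ℂ) := by
        rw [H143.ChevBlocks.not_dvd_iff χ.2]
        exact (hp.pow_dvd_iff_le_factorization (Blocks.Knorr.charDegree_ne_zero χ.2)).1 h12
      exact h13 h2
  have hmid : ∀ χ : IrrCharacter G, H727.TC.IsMidB p x y χ → IsMidC p c d χ ∧ (χ : G → ℂ) x = c χ ∧
      (χ : G → ℂ) y = d χ := by
    rintro χ ⟨h1, h2, h3, h4⟩
    have h5 := hc χ ⟨h3, h4⟩ x hx hx1
    have h6 := hd χ ⟨h3, h4⟩ y hy hy1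
    refine ⟨⟨h1, h2, ?_, ?_⟩, h5, h6⟩
    · intro h0; exact h3 (by rw [h5, h0]; simp)
    · intro h0; exact h4 (by rw [h6, h0]; simp)
  have hncard : {χ : IrrCharacter G | H727.TC.IsMidB p x y χ}.ncard ≤ 2 := by
    refine le_trans (Set.ncard_le_ncard (t := {χ : IrrCharacter G | IsMidC p c d χ}) (fun χ hχ => (hmid χ hχ).1)
      (Set.toFinite _)) ?_
    have hsum : ∑ χ : IrrCharacter G, c χ * d χ = 0 := by
      have h1 := S0145.sum_irr_mul_conj x y⁻¹
      rw [if_neg hxy] at h1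
      have h2 : ∀ χ : IrrCharacter G, (χ : G → ℂ) x * conj ((χ : G → ℂ) y⁻¹) = ((c χ * d χ : ℤ) : ℂ) := by
        intro χ
        rw [Blocks.CyclicUpper.conj_irr χ, inv_inv]
        by_cases h3 : (χ : G → ℂ) x ≠ 0 ∧ (χ : G → ℂ) y ≠ 0
        · rw [hc χ h3 x hx hx1, hd χ h3 y hy hy1]
          push_cast
          ring
        · rw [hc0 χ h3, hd0 χ h3]
          have h4 : (χ : G → ℂ) x = 0 ∨ (χ : G → ℂ) y = 0 := by
            by_contra h5
            push Not at h5
            exact h3 h5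
          rcases h4 with h4 | h4 <;> rw [h4] <;> simp
      rw [Finset.sum_congr rfl fun χ _ => h2 χ, ← Int.cast_sum] at h1
      exact_mod_cast h1
    refine ncard_le_two (t := 1) one_pos huniq hstp hst1 (by rw [hc1, hd1]; simp) ?_ hsum ?_
    · rcases hstc with h1 | h1 <;> rcases hstW with h2 | h2 <;> rw [h1, h2] <;> norm_num
    · intro χ hχ
      rw [(key χ hχ).1]; simp
  have hnorm : ∀ χ : IrrCharacter G, H727.TC.IsMidB p x y χ → ‖(χ : G → ℂ) x‖ * ‖(χ : G → ℂ) y‖ ≤ 1 := by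
    intro χ hχ
    obtain ⟨h1, h5, h6⟩ := hmid χ hχ
    have h7 := (key χ h1).1
    rw [h5, h6, ← norm_mul, ← Int.cast_mul, h7]
    simp
  obtain ⟨u, v', e⟩ := H727.TC.two_of_midB hp hG hxc hyc hxy hncard hnorm
    (fun χ hχ => (key χ (hmid χ hχ).1).2) hcb g hg
  exact ⟨u, v', e⟩

end Cfsg.Agent.H357.T6.Asm
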